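import Cfsg.Agent.H853.ThC.Local
import Cfsg.Agent.H300.Cls.GenChar

/-!
# The Harada-Norton group: the local test at `2` for the class function of degree 2375000, `b ≠ 1` (helper994)

`F` (`2375000` at `1`, zero on the elements of order divisible by `5`), `β` the generalized character of degree `133`.
`TwoB G β F` : the facts which are used.  `loc2` : for a `2`-subgroup `R` of `E ≤ G` and `b ≠ 1` in `E` of odd order which
commutes with `R`, the averages of `F conj χ` over `R b` are algebraic integers.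

* `b` in `3A` : `F = - 3 - Λ²β - 2 β Λ²β + 128 [b]`; `3B` : `F = 80 [b]`; `7A` : `F = 1 + 4 [b]`; `11A` : `F = 1`;
  in all the other cases `R = 1` or `F = 0`.
-/

set_option autoImplicit false

open scoped ComplexConjugate
open Cfsg

namespace Cfsg.Agent.H994.HN

universe u

open Cfsg.Agent.Characters
open Cfsg.Agent.H853.ThC (isIntegral_avg isIntegral_int card_dvd_cent card_dvd_pow order_mul)
open Cfsg.Agent.H300.Cls (isGeneralizedCharacter_altSq isGeneralizedCharacter_zsmul')

section gen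

variable {E : Type u} [Group E] [Finite E] {f : E → ℂ} (R : Subgroup E) [Fintype R] (b : E)
  (hb : ∀ a ∈ R, Commute a b)
include hb

/-- `f = φ + |R| k [b]` on `R b` -/
theorem avg_int {φ : E → ℂ} (hφ : IsGeneralizedCharacter E φ) (k : ℤ)
    (h : ∀ a ∈ R, a ≠ 1 → f (a * b) = φ (a * b)) (h1 : f b = φ b + (Nat.card R : ℂ) * k)
    {χ : E → ℂ} (hχ : IsCharacter E χ) :
    IsIntegral ℤ ((Nat.card R : ℂ)⁻¹ * ∑ a : R, f (a * b) * conj (χ (a * b))) := by
  classical
  have hχc := Core.isCharacter_conj hχ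
  have h2 := isIntegral_avg (Brauer.isGeneralizedCharacter_mul hφ
    (Brauer.isGeneralizedCharacter_of_isCharacter hχc)) R b hb
  have hne : (Nat.card R : ℂ) ≠ 0 := by exact_mod_cast Nat.card_pos.ne'
  have h3 : (Nat.card R : ℂ)⁻¹ * ∑ a : R, f (a * b) * conj (χ (a * b)) =
      (Nat.card R : ℂ)⁻¹ * ∑ a : R, (φ * fun g => conj (χ g)) ((a : E) * b) + k * conj (χ b) := by
    have h4 : ∀ a : R, f (a * b) * conj (χ (a * b)) = (φ * fun g => conj (χ g)) ((a : E) * b) +
        if a = 1 then (Nat.card R : ℂ) * k * conj (χ b) else 0 := by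
      intro a
      by_cases ha : a = 1
      · rw [if_pos ha, ha, Subgroup.coe_one, one_mul, h1, Pi.mul_apply]
        ring
      · rw [if_neg ha, add_zero, h a a.2 (fun h => ha (Subtype.ext h)), Pi.mul_apply]
    rw [Finset.sum_congr rfl (fun a _ => h4 a), Finset.sum_add_distrib,
      Finset.sum_ite_eq' Finset.univ (1 : R), if_pos (Finset.mem_univ _), mul_add]
    field_simp
  rw [h3]
  exact IsIntegral.add h2 (IsIntegral.mul (isIntegral_int k) (GaloisBasic.isIntegral_apply hχc b))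

end gen

/-- the facts -/
structure TwoB (G : Type u) [Group G] [Finite G] (β F : G → ℂ) : Prop where
  gen : IsGeneralizedCharacter G β
  int : ∀ g, ∃ k : ℤ, F g = k
  ord : ∀ g : G, 2 ∣ orderOf g → ¬ 5 ∣ orderOf g → orderOf g ∈ ({2, 4, 6, 8, 12, 14, 22} : Finset ℕ)
  sing : ∀ g : G, 5 ∣ orderOf g → F g = 0
  o3 : ∀ g : G, orderOf g = 3 → (β g = 7 ∧ F g = -190) ∨ (β g = -2 ∧ F g = 80)
  o6 : ∀ g : G, orderOf g = 6 → (β (g ^ 4) = 7 ∧ ((β g = 3 ∧ F g = -10) ∨ (β g = -1 ∧ F g = -6))) ∨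
    (β (g ^ 4) = -2 ∧ F g = 0)
  o12 : ∀ g : G, orderOf g = 12 → (β (g ^ 4) = 7 ∧ ((β g = 1 ∧ β (g ^ 2) = 3 ∧ F g = 0) ∨
    (β g = -1 ∧ β (g ^ 2) = -1 ∧ F g = -2))) ∨ (β (g ^ 4) = -2 ∧ F g = 0)
  o7 : ∀ g : G, orderOf g = 7 → F g = 5
  o14 : ∀ g : G, orderOf g = 14 → F g = 1
  o11 : ∀ g : G, orderOf g = 11 → F g = 1
  o22 : ∀ g : G, orderOf g = 22 → F g = 1
  c3a : ∀ g : G, orderOf g = 3 → β g = 7 → ¬ 128 ∣ Nat.card (Subgroup.centralizer {g})
  c3b : ∀ g : G, orderOf g = 3 → β g = -2 → ¬ 16 ∣ Nat.card (Subgroup.centralizer {g})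
  c7 : ∀ g : G, orderOf g = 7 → ¬ 8 ∣ Nat.card (Subgroup.centralizer {g})

variable {G : Type u} [Group G] [Finite G] {β F : G → ℂ}

/-- **The local test at `2` for `b ≠ 1`.** -/
theorem loc2 (h : TwoB G β F) (E : Subgroup G) {R : Subgroup E} [Fintype R] {b : E} (hR : IsPGroup 2 R)
    (h2b : ¬ 2 ∣ orderOf b) (hb : ∀ a ∈ R, Commute a b) (hb1 : b ≠ 1) {χ : E → ℂ} (hχ : IsCharacter E χ) :
    IsIntegral ℤ ((Nat.card R : ℂ)⁻¹ * ∑ a : R, (fun e : E => F (e : G)) (a * b) * conj (χ (a * b))) := by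
  classical
  have hdc := card_dvd_cent E R b hb
  have hbo : orderOf (b : G) ≠ 1 := by
    rw [Ne, orderOf_eq_one_iff]
    exact fun h1 => hb1 (Subtype.ext h1)
  have hord := fun (a : E) (ha : a ∈ R) => order_mul Nat.prime_two hR hb h2b ha
  have h0 : IsGeneralizedCharacter E (fun _ => (0 : ℂ)) := Brauer.isGeneralizedCharacter_zero
  have h1 : IsGeneralizedCharacter E (fun _ => (1 : ℂ)) :=
    Brauer.isGeneralizedCharacter_of_isCharacter Core.isCharacter_one
  -- `R = 1`
  by_cases htr : ∀ a ∈ R, a = 1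
  · obtain ⟨k, hk⟩ := h.int b
    have hcR : Nat.card R = 1 := by
      rw [Subgroup.card_eq_one, Subgroup.eq_bot_iff_forall]
      exact htr
    refine avg_int (f := fun e : E => F (e : G)) R b hb h0 k (fun a ha ha1 => absurd (htr a ha) ha1) ?_ hχ
    show F b = 0 + _
    rw [hk, hcR]
    push_cast
    ring
  -- `5` divides the order of `b`
  by_cases h5 : 5 ∣ orderOf (b : G)
  · refine avg_int (f := fun e : E => F (e : G)) R b hb h0 0 (fun a ha ha1 => ?_) ?_ hχ
    · obtain ⟨i, hi, -⟩ := hord a ha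
      show F ((a * b : E) : G) = 0
      exact h.sing _ (by rw [hi]; exact Dvd.dvd.mul_left h5 _)
    · show F b = 0 + _
      rw [h.sing _ h5]
      ring
  -- the orders
  have hab : ∀ a ∈ R, a ≠ 1 → ∃ i : ℕ, 1 ≤ i ∧ orderOf ((a * b : E) : G) = 2 ^ i * orderOf (b : G) ∧
      (2 ^ i * orderOf (b : G) = 6 ∨ 2 ^ i * orderOf (b : G) = 12 ∨ 2 ^ i * orderOf (b : G) = 14 ∨
        2 ^ i * orderOf (b : G) = 22) := by
    intro a ha ha1
    obtain ⟨i, hi, hi1⟩ := hord a ha
    have hi1' := hi1 ha1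
    refine ⟨i, hi1', hi, ?_⟩
    have h2 : 2 ∣ orderOf ((a * b : E) : G) := by
      rw [hi]
      exact Dvd.dvd.mul_right (dvd_pow_self 2 (by omega)) _
    have h5' : ¬ 5 ∣ orderOf ((a * b : E) : G) := by
      rw [hi]
      intro h6
      rcases (Nat.Prime.dvd_mul Nat.prime_five).1 h6 with h7 | h7
      · exact absurd ((Nat.prime_dvd_prime_iff_eq Nat.prime_five Nat.prime_two).1
          (Nat.prime_five.dvd_of_dvd_pow h7)) (by norm_num)
      · exact h5 h7
    have h6 := h.ord _ h2 h5'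
    rw [hi] at h6
    have h2b' : ¬ 2 ∣ orderOf (b : G) := by rwa [Subgroup.orderOf_coe]
    obtain ⟨j, rfl⟩ : ∃ j, i = j + 1 := ⟨i - 1, by omega⟩
    have hj : j ≤ 3 := by
      by_contra hc
      have h8 : 2 ^ 5 ≤ 2 ^ (j + 1) := Nat.pow_le_pow_right (by norm_num) (by omega)
      have h9 : 0 < orderOf (b : G) := orderOf_pos _
      have h10 : 2 ^ (j + 1) ≤ 2 ^ (j + 1) * orderOf (b : G) := Nat.le_mul_of_pos_right _ h9
      simp only [Finset.mem_insert, Finset.mem_singleton] at h6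
      omega
    simp only [Finset.mem_insert, Finset.mem_singleton] at h6
    interval_cases j <;> omega
  push Not at htr
  obtain ⟨a0, ha0, ha01⟩ := htr
  have hm : orderOf (b : G) = 3 ∨ orderOf (b : G) = 7 ∨ orderOf (b : G) = 11 := by
    obtain ⟨i, hi1, -, hi⟩ := hab a0 ha0 ha01
    have h2b' : ¬ 2 ∣ orderOf (b : G) := by rwa [Subgroup.orderOf_coe]
    obtain ⟨j, rfl⟩ : ∃ j, i = j + 1 := ⟨i - 1, by omega⟩
    have hj : j ≤ 3 := by
      by_contra hc
      have h8 : 2 ^ 5 ≤ 2 ^ (j + 1) := Nat.pow_le_pow_right (by norm_num) (by omega)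
      have h9 : 0 < orderOf (b : G) := orderOf_pos _
      have h10 : 2 ^ (j + 1) ≤ 2 ^ (j + 1) * orderOf (b : G) := Nat.le_mul_of_pos_right _ h9
      omega
    interval_cases j <;> omega
  rcases hm with hm | hm | hm
  · -- the order is `3`
    have hb33 : (b : G) ^ 3 = 1 := by rw [← hm, pow_orderOf_eq_one]
    have hb3 : (b : G) ^ 4 = b := by
      rw [pow_succ (b : G) 3, hb33, one_mul]
    have hpow : ∀ a ∈ R, ∀ n : ℕ, orderOf ((a * b : E) : G) = n → n ∣ 12 → ((a * b : E) : G) ^ 4 = b := by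
      intro a ha n hn hn12
      have hc : Commute (a : G) (b : G) := congrArg Subtype.val (hb a ha).eq
      have h3 : ((a * b : E) : G) ^ 12 = 1 := by
        rw [← orderOf_dvd_iff_pow_eq_one, hn]
        exact hn12
      have h4 : (a : G) ^ 12 = 1 := by
        have h5 : ((a * b : E) : G) ^ 12 = (a : G) ^ 12 * (b : G) ^ 12 := by
          rw [Subgroup.coe_mul, hc.mul_pow]
        have h6 : (b : G) ^ 12 = 1 := by rw [← orderOf_dvd_iff_pow_eq_one, hm]; norm_num
        rw [h3, h6, mul_one] at h5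
        exact h5.symm
      have h5 : (a : G) ^ 4 = 1 := by
        obtain ⟨k, hk⟩ := (IsPGroup.iff_orderOf.1 hR) ⟨a, ha⟩
        have hk' : orderOf (a : G) = 2 ^ k := by
          rw [← hk, ← Subgroup.orderOf_coe (⟨a, ha⟩ : R), Subgroup.orderOf_coe]
        rw [← orderOf_dvd_iff_pow_eq_one] at h4 ⊢
        rw [hk'] at h4 ⊢
        have h6 : Nat.Coprime (2 ^ k) 3 := Nat.Coprime.pow_left k (by norm_num)
        exact h6.dvd_of_dvd_mul_right (show 2 ^ k ∣ 4 * 3 from h4)
      rw [Subgroup.coe_mul, hc.mul_pow, h5, hb3, one_mul]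
    have hcase : ∀ a ∈ R, a ≠ 1 → orderOf ((a * b : E) : G) = 6 ∨ orderOf ((a * b : E) : G) = 12 := by
      intro a ha ha1
      obtain ⟨i, -, hi, hi'⟩ := hab a ha ha1
      rw [hm] at hi hi'
      rw [hi]
      omega
    rcases h.o3 _ hm with ⟨hβ, hF⟩ | ⟨hβ, hF⟩
    · -- 3A
      obtain ⟨k, hk⟩ := card_dvd_pow (k := 6) Nat.prime_two hR hdc (by simpa using h.c3a _ hm hβ)
      have hβE : IsGeneralizedCharacter E (fun e : E => β (e : G)) := by
        obtain ⟨χ, ψ, hχ, hψ, hβ⟩ := h.gen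
        refine ⟨_, _, Brauer.isCharacter_restrict hχ E, Brauer.isCharacter_restrict hψ E, ?_⟩
        rw [hβ]
        rfl
      have hL := isGeneralizedCharacter_altSq hβE
      have hφ := Brauer.isGeneralizedCharacter_sub (Brauer.isGeneralizedCharacter_sub
        (isGeneralizedCharacter_zsmul' h1 (-3)) hL)
        (isGeneralizedCharacter_zsmul' (Brauer.isGeneralizedCharacter_mul hβE hL) 2)
      have hbb : β ((b : G) * b) = 7 := by
        have h3 : (b : G) * b = (b : G)⁻¹ := by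
          rw [eq_inv_iff_mul_eq_one, ← pow_two, ← pow_succ]
          exact hb33
        rw [h3, H853.ThC.gen_inv h.gen, hβ]
        exact map_ofNat (starRingEnd ℂ) 7
      refine avg_int (f := fun e : E => F (e : G)) R b hb hφ (2 * k) (fun a ha ha1 => ?_) ?_ hχ
      · simp only [Pi.sub_apply, Pi.mul_apply]
        have hsq : ((a * b * (a * b) : E) : G) = ((a * b : E) : G) ^ 2 := by
          rw [pow_two, Subgroup.coe_mul]
        rw [hsq]
        rcases hcase a ha ha1 with h6 | h12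
        · have h4 := hpow a ha 6 h6 (by norm_num)
          have hb7 : β (((a * b : E) : G) ^ 2) = 7 := by
            have h5 : ((a * b : E) : G) ^ 2 = ((a * b : E) : G) ^ 4 * ((a * b : E) : G) ^ 4 := by
              rw [← pow_add]
              have : (8 : ℕ) = 6 + 2 := rfl
              rw [show 4 + 4 = 6 + 2 from rfl, pow_add, ← h6, pow_orderOf_eq_one, one_mul]
            rw [h5, h4, hbb]
          rcases h.o6 _ h6 with ⟨-, ⟨h7, h8⟩ | ⟨h7, h8⟩⟩ | ⟨h7, -⟩
          · rw [h7, h8, hb7]; push_cast; norm_num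
          · rw [h7, h8, hb7]; push_cast; norm_num
          · rw [h4, hβ] at h7
            norm_num at h7
        · have h4 := hpow a ha 12 h12 (by norm_num)
          rcases h.o12 _ h12 with ⟨-, ⟨h7, h7', h8⟩ | ⟨h7, h7', h8⟩⟩ | ⟨h7, -⟩
          · rw [h7, h8, h7']; push_cast; norm_num
          · rw [h7, h8, h7']; push_cast; norm_num
          · rw [h4, hβ] at h7
            norm_num at h7
      · simp only [Pi.sub_apply, Pi.mul_apply]
        rw [Subgroup.coe_mul, hF, hβ, hbb]
        have h3 : (Nat.card R : ℂ) * ((2 * k : ℤ) : ℂ) = 128 := by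
          have h4 : ((Nat.card R * k : ℕ) : ℂ) = ((2 ^ 6 : ℕ) : ℂ) := by rw [← hk]
          push_cast at h4 ⊢
          linear_combination 2 * h4
        push_cast at h3 ⊢
        linear_combination -h3
    · -- 3B
      obtain ⟨k, hk⟩ := card_dvd_pow (k := 3) Nat.prime_two hR hdc (by simpa using h.c3b _ hm hβ)
      refine avg_int (f := fun e : E => F (e : G)) R b hb h0 (10 * k) (fun a ha ha1 => ?_) ?_ hχ
      · show F ((a * b : E) : G) = 0
        rcases hcase a ha ha1 with h6 | h12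
        · have h4 := hpow a ha 6 h6 (by norm_num)
          rcases h.o6 _ h6 with ⟨h7, -⟩ | ⟨-, h7⟩
          · rw [h4, hβ] at h7
            norm_num at h7
          · exact h7
        · have h4 := hpow a ha 12 h12 (by norm_num)
          rcases h.o12 _ h12 with ⟨h7, -⟩ | ⟨-, h7⟩
          · rw [h4, hβ] at h7
            norm_num at h7
          · exact h7
      · show F b = 0 + _
        rw [hF]
        have h4 : ((Nat.card R * k : ℕ) : ℂ) = ((2 ^ 3 : ℕ) : ℂ) := by rw [← hk]
        push_cast at h4 ⊢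
        linear_combination -10 * h4
  · -- the order is `7`
    obtain ⟨k, hk⟩ := card_dvd_pow (k := 2) Nat.prime_two hR hdc (by simpa using h.c7 _ hm)
    refine avg_int (f := fun e : E => F (e : G)) R b hb h1 k (fun a ha ha1 => ?_) ?_ hχ
    · show F ((a * b : E) : G) = 1
      obtain ⟨i, -, hi, hi'⟩ := hab a ha ha1
      apply h.o14
      rw [hm] at hi hi'
      rw [hi]
      omega
    · show F b = 1 + _
      rw [h.o7 _ hm]
      have h4 : ((Nat.card R * k : ℕ) : ℂ) = ((2 ^ 2 : ℕ) : ℂ) := by rw [← hk]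
      push_cast at h4 ⊢
      linear_combination -h4
  · -- the order is `11`
    refine avg_int (f := fun e : E => F (e : G)) R b hb h1 0 (fun a ha ha1 => ?_) ?_ hχ
    · show F ((a * b : E) : G) = 1
      obtain ⟨i, -, hi, hi'⟩ := hab a ha ha1
      apply h.o22
      rw [hm] at hi hi'
      rw [hi]
      omega
    · show F b = 1 + _
      rw [h.o11 _ hm]
      ring

end Cfsg.Agent.H994.HN
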